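import Cfsg.Agent.H579.RR.TwoTrans
import Cfsg.Agent.H612.BNAut
import Cfsg.Agent.S0322

/-!
# The Steinberg character in rank one (S4554, helper579)

* `index_of_rank_one` : `|K : B| = |U| + 1` for a split (B,N)-pair of rank one;
* `rd_of_bn` : `RD G N |U|`.
-/

set_option autoImplicit false

namespace Cfsg.Agent.H579.RR

open Cfsg Cfsg.Agent.H619.R4 Cfsg.Agent.FixBN

universe u

theorem mem_normalizer_of_conj {K : Type*} [Group K] {V : Subgroup K} {x : K} (h1 : ∀ v ∈ V, x * v * x⁻¹ ∈ V)
    (h2 : ∀ v ∈ V, x⁻¹ * v * x ∈ V) : x ∈ Subgroup.normalizer (V : Set K) := by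
  rw [Subgroup.mem_normalizer_iff]
  intro v
  refine ⟨h1 v, fun h => ?_⟩
  have h3 := h2 _ h
  have h4 : x⁻¹ * (x * v * x⁻¹) * x = v := by group
  rwa [h4] at h3

theorem index_of_rank_one {K : Type*} [Group K] [Finite K] {P : Cfsg.BNPair K} {p : ℕ} {U : Subgroup K}
    (h : Split P p U) (hr : P.rank = 1) : P.B.index = Nat.card U + 1 := by
  classical
  have hcard : Nat.card P.S = 1 := hr
  obtain ⟨s, hs⟩ : ∃ s, P.S = {s} := by
    rw [Nat.card_coe_set_eq] at hcard
    exact Set.ncard_eq_one.1 hcard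
  have hsS : s ∈ P.S := hs ▸ Set.mem_singleton s
  have hsN : s ∈ P.N := P.subset hsS
  have hss : s * s ∈ P.B := P.sq_mem s hsS
  obtain ⟨V, hV⟩ := h.node s hsS
  have hVB : V ≤ P.B := hV.le.trans h.le
  have h1 : P.B ≤ Subgroup.normalizer (V : Set K) := fun b hb =>
    mem_normalizer_of_conj (hV.conj_B b hb) (fun v hv => by
      have := hV.conj_B b⁻¹ (inv_mem hb) v hv
      rwa [inv_inv] at this)
  have h2 : s ∈ Subgroup.normalizer (V : Set K) := by
    refine mem_normalizer_of_conj (fun v hv => ?_) hV.conj_s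
    have h3 := hV.conj_B _ hss _ (hV.conj_s v hv)
    have h4 : s * s * (s⁻¹ * v * s) * (s * s)⁻¹ = s * v * s⁻¹ := by group
    rwa [h4] at h3
  have h3 : Subgroup.normalizer (V : Set K) = ⊤ := by
    rw [eq_top_iff, ← P.sup_eq_top, sup_le_iff]
    refine ⟨h1, ?_⟩
    rw [← P.closure_sup, sup_le_iff, Subgroup.closure_le, hs]
    exact ⟨Set.singleton_subset_iff.2 h2, inf_le_left.trans h1⟩
  have hVn : V.Normal := Subgroup.normalizer_eq_top_iff.1 h3
  have hV1 : V = ⊥ := by
    rw [eq_bot_iff, ← h.core]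
    exact (Subgroup.normal_le_normalCore (hN := hVn)).2 hVB
  have hstab : ∀ u ∈ U, s⁻¹ * u * s ∈ P.B → u = 1 := fun u hu hus => by
    have := hV.stab u hu hus
    rwa [hV1, Subgroup.mem_bot] at this
  have hsB : s ∉ P.B := Schreier.BNSch.not_mem_B P hsS
  let f : Option U → K ⧸ P.B := fun o => match o with
    | none => QuotientGroup.mk 1
    | some u => QuotientGroup.mk ((u : K) * s)
  have hf : Function.Bijective f := by
    constructor
    · rintro (_ | u) (_ | v) huv
      · rfl
      · exfalso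
        have h4 : (QuotientGroup.mk 1 : K ⧸ P.B) = QuotientGroup.mk ((v : K) * s) := huv
        rw [QuotientGroup.eq, inv_one, one_mul] at h4
        exact hsB ((Subgroup.mul_mem_cancel_left _ (h.le v.2)).1 h4)
      · exfalso
        have h4 : (QuotientGroup.mk ((u : K) * s) : K ⧸ P.B) = QuotientGroup.mk 1 := huv
        rw [eq_comm, QuotientGroup.eq, inv_one, one_mul] at h4
        exact hsB ((Subgroup.mul_mem_cancel_left _ (h.le u.2)).1 h4)
      · have h4 : (QuotientGroup.mk ((u : K) * s) : K ⧸ P.B) = QuotientGroup.mk ((v : K) * s) := huv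
        rw [QuotientGroup.eq] at h4
        have h5 : ((u : K) * s)⁻¹ * (v * s) = s⁻¹ * ((u : K)⁻¹ * v) * s := by group
        rw [h5] at h4
        have h6 := hstab _ (U.mul_mem (U.inv_mem u.2) v.2) h4
        have h7 : u = v := Subtype.ext (inv_mul_eq_one.1 h6)
        rw [h7]
    · intro x
      induction x using QuotientGroup.induction_on with
      | H x =>
      rcases S0322.mem_B_or_mem P hs x with h4 | ⟨c, hc, d, hd, h4⟩
      · refine ⟨none, ?_⟩
        show (QuotientGroup.mk 1 : K ⧸ P.B) = QuotientGroup.mk x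
        rw [QuotientGroup.eq, inv_one, one_mul]
        exact h4
      · obtain ⟨u, hu, t, ht, rfl⟩ := h.cover' hc
        refine ⟨some ⟨u, hu⟩, ?_⟩
        show (QuotientGroup.mk (u * s) : K ⧸ P.B) = QuotientGroup.mk x
        rw [QuotientGroup.eq, h4]
        have h5 : (u * s)⁻¹ * (u * t * s * d) = (s⁻¹ * t * (s⁻¹)⁻¹) * d := by group
        rw [h5]
        exact mul_mem (P.conj_mem _ (inv_mem hsN) t ht) hd
  rw [Subgroup.index_eq_card, ← Nat.card_congr (Equiv.ofBijective f hf), Finite.card_option]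

/-- **The Steinberg character of a group with socle of rank one is real.** -/
theorem rd_of_bn {S : Type u} [Group S] {G : Type u} [Group G] [Finite G] (N : Subgroup G) [hN : N.Normal]
    (f : S ≃* N) {P : Cfsg.BNPair S} {p : ℕ} [Fact p.Prime] {U : Subgroup S} (h : Split P p U) (hr : P.rank = 1) :
    RD G N (Nat.card U) := by
  have : Finite S := Finite.of_equiv _ f.symm.toEquiv
  have h1 := index_of_rank_one h hr
  have h2 : 2 ≤ Nat.card U := by
    have hcard : Nat.card P.S = 1 := hr
    obtain ⟨s, hs⟩ : ∃ s, P.S = {s} := by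
      rw [Nat.card_coe_set_eq] at hcard
      exact Set.ncard_eq_one.1 hcard
    obtain ⟨V, hV⟩ := h.node s (hs ▸ Set.mem_singleton s)
    obtain ⟨u, hu, huV⟩ := hV.ne
    have h3 : Nontrivial U := ⟨⟨u, hu⟩, 1, fun h4 => huV (by
      have : u = 1 := congrArg Subtype.val h4
      rw [this]
      exact one_mem V)⟩
    exact Finite.one_lt_card
  have h3 := rd_two N f (S0322.result P hr) (by omega) (fun α => by
    obtain ⟨g, hg⟩ := H612.BNAut.exists_conj_B h α
    exact ⟨g, hg⟩)
  rw [h1, Nat.add_sub_cancel] at h3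
  exact h3

end Cfsg.Agent.H579.RR
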