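import Cfsg.Agent.H579.RR.OddOver
import Cfsg.Agent.S0157

/-!
# The real character of a doubly transitive action on the conjugates of a subgroup (S4554, helper579)

* `rd_two` : `N ≅ S` normal in `G`, `S` doubly transitive on `S ⧸ B`, the class of `B` invariant under all
  automorphisms: `RD G N (|S : B| - 1)`.
-/

set_option autoImplicit false

namespace Cfsg.Agent.H579.RR

open Cfsg Cfsg.Agent.Characters Cfsg.Agent.H619.R4 Cfsg.Agent.H686.CharKit MulAction

universe u

/-- point stabilisers of doubly transitive groups are self-normalising (at least three points) -/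
theorem normalizer_eq_of_two {S : Type*} [Group S] {B : Subgroup S} (h2 : IsMultiplyPretransitive S (S ⧸ B) 2)
    (h3 : 3 ≤ B.index) : Subgroup.normalizer (B : Set S) = B := by
  apply le_antisymm _ Subgroup.le_normalizer
  intro x hx
  by_contra hxB
  -- `xB` is fixed by `B`
  rw [is_two_pretransitive_iff] at h2
  have hfix : ∀ b ∈ B, (QuotientGroup.mk (b * x) : S ⧸ B) = QuotientGroup.mk x := by
    intro b hb
    rw [QuotientGroup.eq]
    have h4 := (Subgroup.mem_normalizer_iff.1 ((Subgroup.normalizer (B : Set S)).inv_mem hx) b⁻¹).1 (B.inv_mem hb)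
    rw [inv_inv] at h4
    rw [mul_inv_rev]
    exact h4
  -- a third point
  have hfin : Finite (S ⧸ B) := Nat.finite_of_card_ne_zero (by
    rw [← Subgroup.index_eq_card]
    omega)
  obtain ⟨y, hy1, hyx⟩ : ∃ y : S ⧸ B, y ≠ QuotientGroup.mk 1 ∧ y ≠ QuotientGroup.mk x := by
    classical
    have := Fintype.ofFinite (S ⧸ B)
    have h5 : ({QuotientGroup.mk 1, QuotientGroup.mk x} : Finset (S ⧸ B)).card < (Finset.univ : Finset (S ⧸ B)).card := by
      rw [Finset.card_univ, ← Nat.card_eq_fintype_card, ← Subgroup.index_eq_card]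
      exact lt_of_le_of_lt Finset.card_le_two (by omega)
    obtain ⟨y, -, hy⟩ := Finset.exists_mem_notMem_of_card_lt_card h5
    rw [Finset.mem_insert, Finset.mem_singleton, not_or] at hy
    exact ⟨y, hy.1, hy.2⟩
  have hne : (QuotientGroup.mk 1 : S ⧸ B) ≠ QuotientGroup.mk x := by
    intro h
    rw [QuotientGroup.eq] at h
    exact hxB (by simpa using h)
  obtain ⟨g, hg1, hg2⟩ := h2 hne hy1.symm
  have hgB : g ∈ B := by
    have h6 : (QuotientGroup.mk (g * 1) : S ⧸ B) = QuotientGroup.mk 1 := hg1
    rw [mul_one, QuotientGroup.eq, mul_one] at h6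
    simpa using h6
  have h7 : (QuotientGroup.mk (g * x) : S ⧸ B) = y := hg2
  rw [hfix g hgB] at h7
  exact hyx h7.symm

/-- **Doubly transitive actions on a characteristic class of subgroups.** -/
theorem rd_two {S : Type u} [Group S] {G : Type u} [Group G] [Finite G] (N : Subgroup G) [hN : N.Normal] (f : S ≃* N)
    {B : Subgroup S} (h2 : IsMultiplyPretransitive S (S ⧸ B) 2) (h3 : 3 ≤ B.index)
    (hα : ∀ α : S ≃* S, ∃ s : S, B.map α.toMonoidHom = B.map (MulAut.conj s).toMonoidHom) :
    RD G N (B.index - 1) := by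
  classical
  have hnB := normalizer_eq_of_two h2 h3
  -- the image of `B` and its normaliser
  let ι : S →* G := N.subtype.comp f.toMonoidHom
  have hι : Function.Injective ι := N.subtype_injective.comp f.injective
  have hιN : ∀ s, ι s ∈ N := fun s => (f s).2
  set B' : Subgroup G := B.map ι with hB'
  set H := Subgroup.normalizer (B' : Set G) with hH
  -- conjugation of `B'`
  have hconj : ∀ g : G, ∃ s : S, ∀ y : G, y ∈ B' ↔ ((ι s)⁻¹ * g) * y * ((ι s)⁻¹ * g)⁻¹ ∈ B' := by
    intro g
    let α : S ≃* S := (f.trans (MulAut.conjNormal g : MulAut N)).trans f.symm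
    have hαι : ∀ x, ι (α x) = g * ι x * g⁻¹ := by
      intro x
      show ((f (f.symm ((MulAut.conjNormal g : MulAut N) (f x))) : N) : G) = _
      rw [f.apply_symm_apply, MulAut.conjNormal_apply]
      rfl
    obtain ⟨s, hs⟩ := hα α
    refine ⟨s, fun y => ?_⟩
    have h1 : ∀ x, x ∈ B ↔ s⁻¹ * α x * s ∈ B := by
      intro x
      have h4 : x ∈ B ↔ α x ∈ B.map α.toMonoidHom :=
        (Subgroup.mem_map_iff_mem (f := α.toMonoidHom) α.injective).symm
      rw [h4, hs, Subgroup.mem_map]
      constructor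
      · rintro ⟨z, hz, hzx⟩
        have h5 : s * z * s⁻¹ = α x := hzx
        rw [← h5]
        have h6 : s⁻¹ * (s * z * s⁻¹) * s = z := by group
        rwa [h6]
      · intro h
        refine ⟨_, h, ?_⟩
        show s * (s⁻¹ * α x * s) * s⁻¹ = α x
        group
    constructor
    · rintro ⟨x, hx, rfl⟩
      refine ⟨_, (h1 x).1 hx, ?_⟩
      rw [map_mul, map_mul, map_inv, hαι]
      group
    · rintro ⟨z, hz, hzy⟩
      -- `y` is in `N`
      have h7 : y = g⁻¹ * (ι (s * z * s⁻¹)) * g := by
        rw [map_mul, map_mul, map_inv, hzy]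
        group
      have h8 : y ∈ N := by
        rw [h7]
        have := hN.conj_mem _ (hιN (s * z * s⁻¹)) g⁻¹
        rwa [inv_inv] at this
      obtain ⟨x, hx⟩ : ∃ x, ι x = y := ⟨f.symm ⟨y, h8⟩, by
        show ((f (f.symm ⟨y, h8⟩) : N) : G) = y
        rw [f.apply_symm_apply]⟩
      refine ⟨x, (h1 x).2 ?_, hx⟩
      have h9 : s⁻¹ * α x * s = z := by
        apply hι
        rw [map_mul, map_mul, map_inv, hαι, hx, hzy]
        group
      rwa [h9]
  -- `G = N H`
  have hNH : ∀ g : G, ∃ s : S, (QuotientGroup.mk g : G ⧸ H) = QuotientGroup.mk (ι s) := by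
    intro g
    obtain ⟨s, hs⟩ := hconj g
    refine ⟨s, ?_⟩
    rw [eq_comm, QuotientGroup.eq, hH, Subgroup.mem_normalizer_iff]
    exact hs
  have hmem : ∀ s : S, ι s ∈ H ↔ s ∈ B := by
    intro s
    rw [← hnB, hH, Subgroup.mem_normalizer_iff, Subgroup.mem_normalizer_iff]
    have h4 : ∀ x, ι x ∈ B' ↔ x ∈ B := fun x => Subgroup.mem_map_iff_mem hι
    constructor
    · intro h x
      have := h (ι x)
      rw [← map_inv, ← map_mul, ← map_mul, h4, h4] at this
      exact this
    · intro h y
      by_cases hy : y ∈ N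
      · obtain ⟨x, rfl⟩ : ∃ x, ι x = y := ⟨f.symm ⟨y, hy⟩, by
          show ((f (f.symm ⟨y, hy⟩) : N) : G) = y
          rw [f.apply_symm_apply]⟩
        rw [← map_inv, ← map_mul, ← map_mul, h4, h4]
        exact h x
      · constructor
        · rintro ⟨x, -, rfl⟩
          exact absurd (hιN x) hy
        · rintro ⟨x, -, hx⟩
          exfalso
          apply hy
          have h5 : y = (ι s)⁻¹ * ι x * ι s := by rw [hx]; group
          rw [h5, ← map_inv, ← map_mul, ← map_mul]
          exact hιN _
  have hmk : ∀ s t : S, (QuotientGroup.mk (ι s) : G ⧸ H) = QuotientGroup.mk (ι t) ↔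
      (QuotientGroup.mk s : S ⧸ B) = QuotientGroup.mk t := by
    intro s t
    rw [QuotientGroup.eq, QuotientGroup.eq, ← map_inv, ← map_mul, hmem]
  -- the number of points
  have hcard : Nat.card (G ⧸ H) = B.index := by
    rw [Subgroup.index_eq_card]
    symm
    let F : S ⧸ B → G ⧸ H := fun q => Quotient.liftOn' q (fun s : S => (QuotientGroup.mk (ι s) : G ⧸ H))
      (fun s t hst => (hmk s t).2 (QuotientGroup.eq.2 (QuotientGroup.leftRel_apply.1 hst)))
    have hF : ∀ s : S, F (QuotientGroup.mk s) = QuotientGroup.mk (ι s) := fun _ => rfl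
    refine Nat.card_congr (Equiv.ofBijective F ⟨?_, ?_⟩)
    · intro a b hab
      induction a using QuotientGroup.induction_on with
      | H s =>
      induction b using QuotientGroup.induction_on with
      | H t =>
      rw [hF, hF] at hab
      exact (hmk s t).1 hab
    · intro x
      induction x using QuotientGroup.induction_on with
      | H g =>
      obtain ⟨s, hs⟩ := hNH g
      exact ⟨QuotientGroup.mk s, hs.symm⟩
  have hact : ∀ (s t : S), (ι s • (QuotientGroup.mk (ι t) : G ⧸ H)) = QuotientGroup.mk (ι (s * t)) := by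
    intro s t
    rw [map_mul]
    rfl
  -- double transitivity
  have hG2 : IsMultiplyPretransitive G (G ⧸ H) 2 := by
    rw [is_two_pretransitive_iff] at h2 ⊢
    intro a b c d hab hcd
    induction a using QuotientGroup.induction_on with
    | H a =>
    induction b using QuotientGroup.induction_on with
    | H b =>
    induction c using QuotientGroup.induction_on with
    | H c =>
    induction d using QuotientGroup.induction_on with
    | H d =>
    obtain ⟨a', ha⟩ := hNH a
    obtain ⟨b', hb⟩ := hNH b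
    obtain ⟨c', hc⟩ := hNH c
    obtain ⟨d', hd⟩ := hNH d
    rw [ha, hb] at hab
    rw [hc, hd] at hcd
    rw [ha, hb, hc, hd]
    obtain ⟨g, hg1, hg2⟩ := h2 (a := QuotientGroup.mk a') (b := QuotientGroup.mk b') (c := QuotientGroup.mk c')
      (d := QuotientGroup.mk d') (fun h => hab ((hmk _ _).2 h)) (fun h => hcd ((hmk _ _).2 h))
    refine ⟨ι g, ?_, ?_⟩
    · rw [hact, hmk]
      exact hg1
    · rw [hact, hmk]
      exact hg2
  have hc2 : 2 ≤ Nat.card (G ⧸ H) := by rw [hcard]; omega
  have hirr := (Cfsg.Agent.S0157.result (G := G) (G ⧸ H) hc2).2 hG2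
  refine ⟨⟨_, hirr⟩, fun g => ?_, ?_, ?_⟩
  · show ((Nat.card (fixedBy (G ⧸ H) g) : ℂ) - 1).im = 0
    simp
  · -- not trivial on `N`
    by_contra hcon
    push Not at hcon
    have hfix : ∀ n ∈ N, ∀ x : G ⧸ H, n • x = x := by
      intro n hn x
      have h4 : ((Nat.card (fixedBy (G ⧸ H) n) : ℂ) - 1) = (Nat.card (fixedBy (G ⧸ H) (1 : G)) : ℂ) - 1 := hcon n hn
      have h5 : Nat.card (fixedBy (G ⧸ H) n) = Nat.card (fixedBy (G ⧸ H) (1 : G)) := by
        have h6 : (Nat.card (fixedBy (G ⧸ H) n) : ℂ) = (Nat.card (fixedBy (G ⧸ H) (1 : G)) : ℂ) := by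
          linear_combination h4
        exact_mod_cast h6
      rw [fixedBy_one_eq_univ, Nat.card_coe_set_eq, Nat.card_coe_set_eq, Set.ncard_univ] at h5
      have h7 : fixedBy (G ⧸ H) n = Set.univ :=
        Set.eq_of_subset_of_ncard_le (Set.subset_univ _) (by rw [Set.ncard_univ, h5])
      have h8 : x ∈ fixedBy (G ⧸ H) n := h7 ▸ Set.mem_univ x
      exact h8
    have h9 : ∀ s : S, s ∈ B := by
      intro s
      rw [← hmem]
      have h10 := hfix (ι s) (hιN s) (QuotientGroup.mk (ι 1))
      rw [hact, hmk] at h10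
      rw [hmem]
      have h11 := QuotientGroup.eq.1 h10
      simpa using h11
    have h12 : B = ⊤ := by
      rw [eq_top_iff]
      exact fun s _ => h9 s
    rw [h12, Subgroup.index_top] at h3
    omega
  · apply H672.charDegree_of_eq
    show ((Nat.card (fixedBy (G ⧸ H) (1 : G)) : ℂ) - 1) = _
    rw [fixedBy_one_eq_univ, Nat.card_coe_set_eq, Set.ncard_univ, hcard, Nat.cast_sub (by omega), Nat.cast_one]

end Cfsg.Agent.H579.RR
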